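import Cfsg.Agent.H367.HT.G2S
import Cfsg.Agent.H120.HT.YG2
import Cfsg.Agent.H22.HT.Vac
import Cfsg.Agent.H778.HT.OutExc
import Cfsg.Agent.H523.FpfChev
import Cfsg.Agent.H638.G2Iso
import Cfsg.Agent.H816.OutEmb
import Cfsg.Agent.H37.HT.Grp
import Cfsg.Agent.S1055

/-!
# S4933: the almost simple groups with socle `G₂(q)`, `9 ∣ q + 1`, `p = 3` (helper367)

`rowOut_g2` : if `P ≰ N`, then `P` has characters of degree 3 and of degree at least 9; so `RowOut 3` is vacuous.
-/

set_option autoImplicit false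

open Subgroup

namespace Cfsg.Agent.H367.HT.GTwo

open Cfsg Cfsg.Lie Cfsg.Agent.H316.HT Cfsg.Agent.ChevalleyStructure.CoxeterGeomTypes Cfsg.Agent.Nodes.RGDChev

/-! ### almost simple groups -/

section alm

variable {A : Type*} [Group A] (N : Subgroup A) [hN : N.Normal] {Y : Type*} [Group Y] (e : N ≃* Y)

/-- an element which acts as an inner automorphism is in `N` -/
theorem mem_of_inner (hC : centralizer (N : Set A) = ⊥) {z : A} {g : Y}
    (h : MulAut.congr e (MulAut.conjNormal z) = MulAut.conj g) : z ∈ N := by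
  have key : ∀ n : N, z * (n : A) * z⁻¹ = (e.symm g : A) * n * (e.symm g : A)⁻¹ := by
    intro n
    have h1 := DFunLike.congr_fun h (e n)
    have h2 : e (MulAut.conjNormal z (e.symm (e n))) = g * e n * g⁻¹ := h1
    rw [MulEquiv.symm_apply_apply] at h2
    have h3 := congrArg (fun y => ((e.symm y : N) : A)) h2
    simp only [MulEquiv.symm_apply_apply, map_mul, map_inv, Subgroup.coe_mul, Subgroup.coe_inv,
      MulAut.conjNormal_apply] at h3
    exact h3
  have h1 : (e.symm g : A)⁻¹ * z ∈ centralizer (N : Set A) := by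
    rw [mem_centralizer_iff]
    intro n hn
    have h2 := key ⟨n, hn⟩
    have h3 : z * n = (e.symm g : A) * n * (e.symm g : A)⁻¹ * z := by
      rw [← h2]; group
    calc n * ((e.symm g : A)⁻¹ * z) = (e.symm g : A)⁻¹ * ((e.symm g : A) * n * (e.symm g : A)⁻¹ * z) := by group
      _ = (e.symm g : A)⁻¹ * z * n := by rw [← h3, mul_assoc]
  rw [hC, mem_bot, inv_mul_eq_one] at h1
  rw [← h1]
  exact (e.symm g).2

/-- powers of the automorphism -/
theorem pow_inner {z : A} {k : ℕ} (hk : z ^ k ∈ N) :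
    (MulAut.congr e (MulAut.conjNormal z)) ^ k = MulAut.conj (e ⟨_, hk⟩) := by
  rw [← map_pow, ← map_pow]
  ext y
  show e (MulAut.conjNormal (z ^ k) (e.symm y)) = e ⟨_, hk⟩ * y * (e ⟨_, hk⟩)⁻¹
  have h2 : MulAut.conjNormal (z ^ k) (e.symm y) = ⟨_, hk⟩ * e.symm y * (⟨_, hk⟩ : N)⁻¹ :=
    Subtype.ext (by rw [MulAut.conjNormal_apply]; rfl)
  rw [h2, map_mul, map_mul, map_inv, MulEquiv.apply_symm_apply]

end alm

/-- the last power outside `N` -/
theorem exists_last {A : Type*} [Group A] (N : Subgroup A) {x : A} (hx : x ∉ N) {k : ℕ} (hk : x ^ 3 ^ k ∈ N) :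
    ∃ j : ℕ, x ^ 3 ^ j ∉ N ∧ (x ^ 3 ^ j) ^ 3 ∈ N := by
  classical
  have hex : ∃ k, x ^ 3 ^ k ∈ N := ⟨k, hk⟩
  have h0 : Nat.find hex ≠ 0 := by
    intro h
    have h1 := Nat.find_spec hex
    rw [h, pow_zero, pow_one] at h1
    exact hx h1
  obtain ⟨j, hj⟩ := Nat.exists_eq_succ_of_ne_zero h0
  refine ⟨j, Nat.find_min hex (by omega), ?_⟩
  have h1 := Nat.find_spec hex
  rw [hj] at h1
  rwa [← pow_mul, ← pow_succ]

section main

variable {F : Type} [Field F] [Fintype F]

/-- outer automorphisms of order three move the class of `y` -/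
theorem exists_moved (h9 : 9 ∣ Fintype.card F + 1) :
    ∃ y : ↥(chevG2.group F), (∃ k : ℕ, y ^ 3 ^ k = 1) ∧ y ^ 3 ≠ 1 ∧
      ∀ α : MulAut ↥(chevG2.group F), (∃ g, α ^ 3 = MulAut.conj g) → (¬ ∃ g, α = MulAut.conj g) →
        ∀ g : ↥(chevG2.group F), α (g * y * g⁻¹) ≠ g * y * g⁻¹ := by
  obtain ⟨y, hy1, hy2, hy3⟩ := Cfsg.Agent.H120.HT.YG2.exists_y (F := F) h9
  refine ⟨y, hy1, hy2, fun α h1 h2 g hg => ?_⟩
  have : Fact (Nat.Prime 3) := ⟨Nat.prime_three⟩
  have hc : 1 < Fintype.card F := Fintype.one_lt_card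
  have hF : ∃ a : F, a ≠ 0 ∧ a ≠ 1 := by
    by_contra hcon
    push Not at hcon
    have h3 : Fintype.card F ≤ 2 := by
      classical
      have h4 : (Finset.univ : Finset F) ⊆ {0, 1} := by
        intro a _
        by_cases ha : a = 0
        · simp [ha]
        · simp [hcon a ha]
      exact (Finset.card_le_card h4).trans (Finset.card_le_two)
    omega
  obtain ⟨hs, hna⟩ := Cfsg.Agent.S1055.result hF
  have hab : ∃ a b : ↥(chevG2.group F), a * b ≠ b * a := by
    by_contra hcon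
    push Not at hcon
    exact hna ⟨⟨hcon⟩⟩
  obtain ⟨r, hr⟩ := CharP.exists F
  have hrp : Fact r.Prime := ⟨CharP.char_is_prime F r⟩
  obtain ⟨f, -, hFr⟩ := FiniteField.card F r
  have hf : 1 ≤ (f : ℕ) := f.pos
  have hRA : Nat.card (RingAut F) = f := Cfsg.Agent.Lib.FieldAutCard.card_ringAut hf hFr
  have hr3 : r ≠ 3 := by
    rintro rfl
    have h5 : 3 ∣ Fintype.card F := by rw [hFr]; exact dvd_pow_self 3 (by omega)
    omega
  obtain ⟨s, hs1, hs3, hs⟩ := Cfsg.Agent.H778.HT.untw_aux (D := chevG2) (l := 2) (M := CoxeterMatrix.G₂)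
    (by simp [IsType, typeList]) hab (m := 1) (by
      rw [Cfsg.Agent.S2121.result r f hFr (by rw [← hFr]; omega), hRA, if_neg hr3, one_mul]) (p := 3)
    (by norm_num) α h1 h2
  have h6 := hs (g * y * g⁻¹)
  rw [hg] at h6
  have h7 := Cfsg.Agent.H778.HT.CP.conj (F := F) g y
  rw [MulAut.conj_apply] at h7
  rw [h7, show (((1 : F ≃+* F)) : F →+* F) = RingHom.id F from rfl, Polynomial.map_id] at h6
  exact hy3 s hs3 hs1 h6.symm

/-- `Out G₂(q)` is cyclic -/
theorem cyclic_out (hq : 3 ≤ Fintype.card F) : IsCyclic (Out ↥(chevG2.group F)) := by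
  obtain ⟨β, hβ⟩ := Cfsg.Agent.H523.Chev.cycOut_G2 (F := F) hq
  refine ⟨⟨QuotientGroup.mk' (Inn _) β, fun x => ?_⟩⟩
  obtain ⟨γ, rfl⟩ := QuotientGroup.mk'_surjective (Inn ↥(chevG2.group F)) x
  obtain ⟨g, k, rfl⟩ := hβ γ
  refine ⟨k, ?_⟩
  show (QuotientGroup.mk' (Inn _) β) ^ k = QuotientGroup.mk' (Inn _) (MulAut.conj g * β ^ k)
  rw [map_mul, map_zpow]
  have h1 : QuotientGroup.mk' (Inn ↥(chevG2.group F)) (MulAut.conj g) = 1 :=
    (QuotientGroup.eq_one_iff _).2 ⟨g, rfl⟩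
  rw [h1, one_mul]

/-- **The almost simple groups with `P ≰ N` do not occur.** -/
theorem rowOut_g2 (h9 : 9 ∣ Fintype.card F + 1) : RowOut 3 ↥(chevG2.group F) := by
  intro A _ _ N _ ⟨e⟩ hC M hM P a ha hcd hPN
  exfalso
  have : Fact (Nat.Prime 3) := ⟨Nat.prime_three⟩
  have hc : 1 < Fintype.card F := Fintype.one_lt_card
  obtain ⟨y, hy1, hy2, hy3⟩ := exists_moved (F := F) h9
  obtain ⟨g2⟩ := Cfsg.Agent.H638.G2Iso.equiv (F := F)
  obtain ⟨S, hS⟩ := Cfsg.Agent.H37.HT.exists_sylow_subgroupOf P N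
  have h3 : (3 : F) ≠ 0 := by
    intro h3
    have h4 : CharP F 3 := (CharP.charP_iff_prime_eq_zero Nat.prime_three).2 (by exact_mod_cast h3)
    obtain ⟨n, hn⟩ := FiniteField.card F 3
    have h5 : 3 ∣ Fintype.card F := by rw [hn.2]; exact dvd_pow_self 3 n.pos.ne'
    omega
  have h9' : 9 ∣ Nat.card F ^ 2 - 1 := by
    rw [Nat.card_eq_fintype_card]
    have h6 : Fintype.card F ^ 2 - 1 = (Fintype.card F + 1) * (Fintype.card F - 1) := by
      have := Nat.sq_sub_sq (Fintype.card F) 1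
      rwa [one_pow] at this
    rw [h6]
    exact Dvd.dvd.mul_right h9 _
  obtain ⟨B, hBS, hBab, hBcard, hB81, hB9, hBx⟩ := facts h3 h9' (e.trans g2.symm) S
  have hBP : B.map N.subtype ≤ (P : Subgroup A) := by
    rintro _ ⟨b, hb, rfl⟩
    have h4 := hBS hb
    rw [hS, mem_subgroupOf] at h4
    exact h4
  have hmemA : ∀ x : P, x ∈ (B.map N.subtype).subgroupOf P ↔ ∃ n ∈ B, (n : A) = x := by
    intro x
    rw [mem_subgroupOf, mem_map]
    rfl
  have hcardA : Nat.card ((B.map N.subtype).subgroupOf (P : Subgroup A)) = Nat.card B := by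
    rw [Nat.card_congr (subgroupOfEquivOfLe hBP).toEquiv]
    exact (Nat.card_congr (B.equivMapOfInjective N.subtype N.subtype_injective).toEquiv).symm
  have hcardP : Nat.card (N.subgroupOf (P : Subgroup A)) = Nat.card (S : Subgroup N) := by
    have e1 := Nat.card_congr
      ((N.subgroupOf (P : Subgroup A)).equivMapOfInjective _ (P : Subgroup A).subtype_injective).toEquiv
    have e2 := Nat.card_congr (((P : Subgroup A).subgroupOf N).equivMapOfInjective _ N.subtype_injective).toEquiv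
    rw [subgroupOf_map_subtype] at e1 e2
    rw [hS, e1, e2, inf_comm]
  refine Cfsg.Agent.H22.HT.vac P.isPGroup' (N.subgroupOf (P : Subgroup A)) ((B.map N.subtype).subgroupOf (P : Subgroup A))
    ?_ ?_ ?_ ?_ ?_ ?_ ?_ ?_ a hcd.1
  · -- cyclic
    obtain ⟨φ, hφ⟩ := H816.OutEmb.exists_hom N (by rw [hC]; exact bot_le)
    obtain ⟨f⟩ := H816.OutEmb.out_congr e
    have hcy := cyclic_out (F := F) (by omega)
    have hcy' : IsCyclic (Out N) := isCyclic_of_surjective f.symm f.symm.surjective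
    have h4 : (φ.comp (P : Subgroup A).subtype).ker = N.subgroupOf (P : Subgroup A) := by
      ext x
      rw [MonoidHom.mem_ker, MonoidHom.comp_apply, ← MonoidHom.mem_ker, hφ, Subgroup.mem_subgroupOf]
      rfl
    have h5 : IsCyclic (φ.comp (P : Subgroup A).subtype).range := Subgroup.isCyclic _
    have e1 := (QuotientGroup.quotientMulEquivOfEq h4.symm).trans
      (QuotientGroup.quotientKerEquivRange (φ.comp (P : Subgroup A).subtype))
    exact isCyclic_of_surjective e1.symm e1.symm.surjective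
  · rw [Ne, subgroupOf_eq_top]
    exact hPN
  · intro x hx
    obtain ⟨n, -, hn⟩ := (hmemA x).1 hx
    rw [mem_subgroupOf, ← hn]
    exact n.2
  · intro x hx z hz
    obtain ⟨n, hn, hnx⟩ := (hmemA x).1 hx
    obtain ⟨m, hm, hmz⟩ := (hmemA z).1 hz
    apply Subtype.ext
    rw [Subgroup.coe_mul, Subgroup.coe_mul, ← hnx, ← hmz]
    exact congrArg Subtype.val (hBab n hn m hm)
  · rw [hcardP, hcardA, hBcard]
  · rw [hcardA]
    exact hB81
  · intro x hx hxA
    rw [mem_subgroupOf] at hx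
    have h4 : (⟨x, hx⟩ : N) ∈ (S : Subgroup N) := by
      rw [hS, mem_subgroupOf]
      exact x.2
    have h5 : (⟨x, hx⟩ : N) ∉ B := fun h => hxA ((hmemA x).2 ⟨_, h, rfl⟩)
    refine le_trans ?_ (hBx _ h4 h5).2
    have h6 : ∀ a : ↥((B.map N.subtype).subgroupOf (P : Subgroup A) ⊓ centralizer ({x} : Set P)),
        ∃ b : {b : B // (⟨x, hx⟩ : N) * b = b * (⟨x, hx⟩ : N)}, ((b : B) : A) = ((a : P) : A) := by
      rintro ⟨a, ha1, ha2⟩
      obtain ⟨n, hn, hna⟩ := (hmemA a).1 ha1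
      refine ⟨⟨⟨n, hn⟩, Subtype.ext ?_⟩, hna⟩
      have ha3 : a ∈ centralizer ({x} : Set P) := ha2
      rw [mem_centralizer_singleton_iff] at ha3
      have h7 := congrArg Subtype.val ha3
      rw [Subgroup.coe_mul, Subgroup.coe_mul] at h7
      show (x : A) * (n : A) = n * x
      rw [hna]
      exact h7.symm
    choose f hf using h6
    refine Nat.card_le_card_of_injective f fun u v huv => ?_
    apply Subtype.ext
    apply Subtype.ext
    rw [← hf u, ← hf v, huv]
  · -- outer elements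
    intro x hx
    by_contra hcon
    push Not at hcon
    rw [mem_subgroupOf] at hx
    obtain ⟨k, hk⟩ := P.isPGroup' x
    have hk' : (x : A) ^ 3 ^ k ∈ N := by
      have h4 : (x : A) ^ 3 ^ k = 1 := congrArg Subtype.val hk
      rw [h4]
      exact one_mem _
    obtain ⟨j, hj1, hj2⟩ := exists_last N hx hk'
    -- `y` in `A0`
    obtain ⟨k', hk''⟩ := hy1
    have hyp : IsPGroup 3 (zpowers (e.symm y)) := by
      rw [IsPGroup.iff_card]
      have h5 : orderOf (e.symm y) ∣ 3 ^ k' := orderOf_dvd_of_pow_eq_one (by rw [← map_pow, hk'', map_one])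
      obtain ⟨m, -, hm⟩ := (Nat.dvd_prime_pow Nat.prime_three).1 h5
      exact ⟨m, by rw [Nat.card_zpowers, hm]⟩
    obtain ⟨S', hS'⟩ := hyp.exists_le_sylow
    obtain ⟨g, hg⟩ := MulAction.exists_smul_eq N S' S
    have h5 : g * e.symm y * g⁻¹ ∈ (S : Subgroup N) := by
      rw [← hg]
      have h6 : e.symm y ∈ (S' : Subgroup N) := hS' (mem_zpowers _)
      have h7 := Subgroup.smul_mem_pointwise_smul (e.symm y) (MulAut.conj g) (S' : Subgroup N) h6
      rwa [MulAut.smul_def, MulAut.conj_apply] at h7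
    have h6 : g * e.symm y * g⁻¹ ∈ B := by
      by_contra h7
      have h8 := (hBx _ h5 h7).1
      rw [conj_pow] at h8
      have h9 : (e.symm y) ^ 3 = 1 := by
        have h10 := congrArg (fun u => g⁻¹ * u * g) h8
        simpa [mul_assoc] using h10
      rw [← map_pow, map_eq_one_iff _ e.symm.injective] at h9
      exact hy2 h9
    have h7 : (g * e.symm y * g⁻¹ : N) ∈ B := h6
    obtain ⟨s, hs⟩ : ∃ s : N, s = g * e.symm y * g⁻¹ := ⟨_, rfl⟩
    rw [← hs] at h7
    have h8 : (s : A) ∈ (P : Subgroup A) := hBP ⟨s, h7, rfl⟩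
    have h9 : (x : A) * s = s * x := congrArg Subtype.val (hcon ⟨s, h8⟩ ((hmemA _).2 ⟨s, h7, rfl⟩))
    have h10 : ((x : A) ^ 3 ^ j) * s = s * (x : A) ^ 3 ^ j := ((show Commute (x : A) s from h9).pow_left _).eq
    refine hy3 (MulAut.congr e (MulAut.conjNormal ((x : A) ^ 3 ^ j))) ⟨_, pow_inner N e hj2⟩ ?_ (e g) ?_
    · rintro ⟨g', hg'⟩
      exact hj1 (mem_of_inner N e hC hg')
    · have h11 : e g * y * (e g)⁻¹ = e s := by
        rw [hs, map_mul, map_mul, map_inv, MulEquiv.apply_symm_apply]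
      rw [h11]
      show e (MulAut.conjNormal ((x : A) ^ 3 ^ j) (e.symm (e s))) = e s
      rw [MulEquiv.symm_apply_apply]
      congr 1
      apply Subtype.ext
      rw [MulAut.conjNormal_apply, h10, mul_inv_cancel_right]

end main

end Cfsg.Agent.H367.HT.GTwo
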